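import Mathlib
import Cfsg.Agent.Lib.Helper85.USim.Defs

/-!
# USIM (S5982): package [9] `pRoot`

Pure field theory: an irreducible factor `π` of `X^r - 1` over `F_q`, `q = q₀²`, of degree
`ord_r(q) ≥ 2`, with `π^σ` associated to the reciprocal of `π`, forces `(-q₀)^(ord_r q) = 1`
in `ZMod r`.
-/

set_option autoImplicit false

namespace Cfsg.Agent.Lib.Helper77.USim

open Polynomial Cfsg.Agent.Lib.Helper85.USim

universe u

/-- Number theory tail: an element of odd order has the same order as its square. -/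
theorem root_nt {r : ℕ} (a : ZMod r) (k : ℕ) (h : a ^ (2 * k + 1) = 1) :
    a ^ orderOf (a ^ 2) = 1 := by
  have hd : orderOf a ∣ 2 * k + 1 := orderOf_dvd_of_pow_eq_one h
  have hodd : Odd (orderOf a) := Odd.of_dvd_nat ⟨k, rfl⟩ hd
  have hcop : (orderOf a).Coprime 2 := Nat.coprime_two_right.2 hodd
  rw [hcop.orderOf_pow]
  exact pow_orderOf_eq_one a

theorem pRoot : PRoot.{u} := by
  intro F _ _ q₀ r _ hcard hq0 σ hσ π hmon hirr hdvd hdeg h2 hass
  haveI : Fact (Irreducible π) := ⟨hirr⟩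
  have hr : r.Prime := Fact.out
  obtain ⟨p, hp⟩ := CharP.exists F
  haveI := hp
  obtain ⟨m, hpp, hcardp⟩ := FiniteField.card F p
  haveI : Fact p.Prime := ⟨hpp⟩
  obtain ⟨j, -, hj⟩ := (Nat.dvd_prime_pow hpp).1
    (show q₀ ∣ p ^ (m : ℕ) from ⟨q₀, by rw [← hcardp, hcard, sq]⟩)
  haveI : CharP (AdjoinRoot π) p :=
    charP_of_injective_algebraMap (algebraMap F (AdjoinRoot π)).injective p
  have hroot : eval₂ (AdjoinRoot.of π) (AdjoinRoot.root π) π = 0 := AdjoinRoot.eval₂_root π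
  have hlr : (AdjoinRoot.root π) ^ r = 1 := by
    have := eval₂_eq_zero_of_dvd_of_eval₂_eq_zero (AdjoinRoot.of π) (AdjoinRoot.root π) hdvd hroot
    simpa [eval₂_sub, eval₂_pow, eval₂_X, eval₂_one, sub_eq_zero] using this
  have hl1 : AdjoinRoot.root π ≠ 1 := by
    intro h
    have h1 : AdjoinRoot.mk π X = AdjoinRoot.mk π 1 := by rw [AdjoinRoot.mk_X, h, map_one]
    rw [AdjoinRoot.mk_eq_mk] at h1
    have hX1 : (X - 1 : F[X]) = X - C 1 := by simp
    rw [hX1] at h1
    have := natDegree_le_of_dvd h1 (X_sub_C_ne_zero (1 : F))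
    rw [natDegree_X_sub_C] at this
    omega
  have hord : orderOf (AdjoinRoot.root π) = r := orderOf_eq_prime hlr hl1
  have hl0 : AdjoinRoot.root π ≠ 0 := by
    intro h
    rw [h, zero_pow hr.ne_zero] at hlr
    exact zero_ne_one hlr
  -- `λ⁻¹` is a root of `π^σ`
  have hinvroot : eval₂ (AdjoinRoot.of π) (AdjoinRoot.root π)⁻¹ (π.map σ) = 0 := by
    haveI : Invertible (AdjoinRoot.root π) := invertibleOfNonzero hl0
    have h := (eval₂_reverse_eq_zero_iff (AdjoinRoot.of π) (AdjoinRoot.root π) π).2 hroot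
    rw [invOf_eq_inv] at h
    exact eval₂_eq_zero_of_dvd_of_eval₂_eq_zero (AdjoinRoot.of π) _ hass.symm.dvd h
  -- the Frobenius conjugates of `λ^q₀` are roots of `π^σ`
  have hpowroot : ∀ k : ℕ,
      eval₂ (AdjoinRoot.of π) ((AdjoinRoot.root π) ^ (q₀ ^ (2 * k + 1))) (π.map σ) = 0 := by
    intro k
    have hΦ : ∀ x : AdjoinRoot π,
        iterateFrobenius (AdjoinRoot π) p (j * (2 * k + 1)) x = x ^ (q₀ ^ (2 * k + 1)) := by
      intro x
      rw [iterateFrobenius_def, pow_mul, ← hj]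
    have hFa : ∀ a : F, a ^ (q₀ ^ (2 * k + 1)) = a ^ q₀ := by
      intro a
      have h1 : q₀ ^ (2 * k + 1) = (Fintype.card F) ^ k * q₀ := by
        rw [hcard, ← pow_mul, pow_succ]
      rw [h1, pow_mul, FiniteField.pow_card_pow]
    have hcomp : (iterateFrobenius (AdjoinRoot π) p (j * (2 * k + 1))).comp (AdjoinRoot.of π) =
        (AdjoinRoot.of π).comp σ := by
      ext a
      rw [RingHom.comp_apply, RingHom.comp_apply, hΦ, ← map_pow, hσ, hFa]
    have h := congrArg (iterateFrobenius (AdjoinRoot π) p (j * (2 * k + 1))) hroot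
    rw [hom_eval₂, hcomp, map_zero, hΦ] at h
    rw [eval₂_map]
    exact h
  -- counting the roots
  have hπσ : π.map σ ≠ 0 := by
    rw [Ne, Polynomial.map_eq_zero]
    exact hmon.ne_zero
  have hne : ((π.map σ).map (AdjoinRoot.of π)) ≠ 0 := by
    rw [Ne, Polynomial.map_eq_zero]
    exact hπσ
  have hdegE : ((π.map σ).map (AdjoinRoot.of π)).natDegree = π.natDegree := by
    rw [natDegree_map, natDegree_map]
  have hinj : Set.InjOn (fun k : ℕ => (AdjoinRoot.root π) ^ (q₀ ^ (2 * k + 1)))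
      (Finset.range π.natDegree : Set ℕ) := by
    intro k hk l hl hkl
    have hk' := Finset.mem_range.1 (Finset.mem_coe.1 hk)
    have hl' := Finset.mem_range.1 (Finset.mem_coe.1 hl)
    have hkl' : (AdjoinRoot.root π) ^ (q₀ ^ (2 * k + 1)) =
        (AdjoinRoot.root π) ^ (q₀ ^ (2 * l + 1)) := hkl
    have hfo : IsOfFinOrder (AdjoinRoot.root π) :=
      isOfFinOrder_iff_pow_eq_one.2 ⟨r, hr.pos, hlr⟩
    rw [hfo.pow_eq_pow_iff_modEq, hord] at hkl'
    have hz := (ZMod.natCast_eq_natCast_iff _ _ _).2 hkl'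
    push_cast at hz
    have hz2 : ((q₀ ^ 2 : ℕ) : ZMod r) ^ k = ((q₀ ^ 2 : ℕ) : ZMod r) ^ l := by
      push_cast
      have h3 : (q₀ : ZMod r) * ((q₀ : ZMod r) ^ 2) ^ k =
          (q₀ : ZMod r) * ((q₀ : ZMod r) ^ 2) ^ l := by
        rw [← pow_mul, ← pow_mul, ← pow_succ', ← pow_succ']
        exact hz
      exact mul_left_cancel₀ hq0 h3
    have hq2 : ((q₀ ^ 2 : ℕ) : ZMod r) ≠ 0 := by
      push_cast
      exact pow_ne_zero 2 hq0
    have hfo2 : IsOfFinOrder ((q₀ ^ 2 : ℕ) : ZMod r) :=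
      isOfFinOrder_iff_pow_eq_one.2
        ⟨r - 1, Nat.sub_pos_of_lt hr.one_lt, ZMod.pow_card_sub_one_eq_one hq2⟩
    rw [hfo2.pow_eq_pow_iff_modEq, ← hdeg] at hz2
    exact Nat.ModEq.eq_of_lt_of_lt hz2 hk' hl'
  have hsub : (Finset.range π.natDegree).image
      (fun k : ℕ => (AdjoinRoot.root π) ^ (q₀ ^ (2 * k + 1))) ⊆
      ((π.map σ).map (AdjoinRoot.of π)).roots.toFinset := by
    intro y hy
    obtain ⟨k, -, rfl⟩ := Finset.mem_image.1 hy
    rw [Multiset.mem_toFinset, mem_roots hne, IsRoot, eval_map]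
    exact hpowroot k
  have hcardle : ((π.map σ).map (AdjoinRoot.of π)).roots.toFinset.card ≤
      ((Finset.range π.natDegree).image
        (fun k : ℕ => (AdjoinRoot.root π) ^ (q₀ ^ (2 * k + 1)))).card := by
    rw [Finset.card_image_of_injOn hinj, Finset.card_range]
    calc ((π.map σ).map (AdjoinRoot.of π)).roots.toFinset.card
        ≤ Multiset.card ((π.map σ).map (AdjoinRoot.of π)).roots := Multiset.toFinset_card_le _
      _ ≤ ((π.map σ).map (AdjoinRoot.of π)).natDegree := card_roots' _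
      _ = π.natDegree := hdegE
  have heq := Finset.eq_of_subset_of_card_le hsub hcardle
  have hmem : (AdjoinRoot.root π)⁻¹ ∈ ((π.map σ).map (AdjoinRoot.of π)).roots.toFinset := by
    rw [Multiset.mem_toFinset, mem_roots hne, IsRoot, eval_map]
    exact hinvroot
  rw [← heq] at hmem
  obtain ⟨k, -, hk⟩ := Finset.mem_image.1 hmem
  have hk1 : (AdjoinRoot.root π) ^ (q₀ ^ (2 * k + 1) + 1) = 1 := by
    rw [pow_succ]
    have hk' : (AdjoinRoot.root π) ^ (q₀ ^ (2 * k + 1)) = (AdjoinRoot.root π)⁻¹ := hk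
    rw [hk', inv_mul_cancel₀ hl0]
  have hdv : r ∣ q₀ ^ (2 * k + 1) + 1 := by
    rw [← hord]
    exact orderOf_dvd_of_pow_eq_one hk1
  have hz := (ZMod.natCast_eq_zero_iff _ _).2 hdv
  push_cast at hz
  have hneg : (-((q₀ : ℕ) : ZMod r)) ^ (2 * k + 1) = 1 := by
    rw [Odd.neg_pow ⟨k, rfl⟩]
    linear_combination -hz
  have hfin := root_nt (-((q₀ : ℕ) : ZMod r)) k hneg
  rw [neg_sq] at hfin
  rw [Nat.cast_pow]
  exact hfin

end Cfsg.Agent.Lib.Helper77.USim
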